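import Mathlib
import Cfsg.Agent.Lib.LinGroup.Hall
import Cfsg.Agent.Lib.LinGroup.Jordan
import Cfsg.Agent.Lib.Char.Induced

/-!
# The explicit Jordan bound

`n! * 12 ^ (n * (π(n + 1) + 1))` for the index of an abelian normal subgroup of a finite linear
group of degree `n`.
-/

set_option autoImplicit false
set_option linter.unusedSectionVars false
set_option linter.style.haveILetI false

namespace Cfsg.Agent.Lib.LinGroup

open Module Cfsg.Agent.Lib.Char.Decomp Cfsg.Agent.Lib.Char.Basic
open scoped commutatorElement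

universe u v

section Nilp

variable {P : Type u} [Group P] [Fintype P] [Group.IsNilpotent P]
variable {V : Type v} [AddCommGroup V] [Module ℂ V] [FiniteDimensional ℂ V]

/-- Characters of nilpotent groups on the kernel of the monomial action are sums of linear
characters. -/
theorem exists_monomial_data (ρ : Representation ℂ P V) :
    ∃ (X : Type u) (_ : Fintype X) (π : P →* Equiv.Perm X) (μ : X → (π.ker →* ℂˣ)),
      ∀ z : π.ker, ρ.character z = ∑ x, ((μ x z : ℂˣ) : ℂ) := by
  classical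
  refine rep_induction (P := fun V _ _ ρ =>
    ∃ (X : Type u) (_ : Fintype X) (π : P →* Equiv.Perm X) (μ : X → (π.ker →* ℂˣ)),
      ∀ z : π.ker, ρ.character z = ∑ x, ((μ x z : ℂˣ) : ℂ)) ?_ ?_ ?_ V ρ
  · intro W _ _ _ τ hs
    refine ⟨PEmpty, inferInstance, 1, fun x => x.elim, ?_⟩
    intro z
    have : τ (z : P) = 0 := Subsingleton.elim _ _
    change LinearMap.trace ℂ W (τ (z : P)) = _
    rw [this]
    simp
  · intro W _ _ _ τ hτ
    obtain ⟨H, lam, hψ⟩ := Cfsg.Agent.Lib.Char.Monomial.monomial_of_nilpotent τ.character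
      (isIrrCharacter_of_irrep τ hτ)
    letI : Fintype (P ⧸ H) := Fintype.ofFinite _
    let π : P →* Equiv.Perm (P ⧸ H) := MulAction.toPermHom P (P ⧸ H)
    let t : P ⧸ H → P := fun q => Quotient.out q
    have ht : ∀ q : P ⧸ H, (t q : P ⧸ H) = q := fun q => QuotientGroup.out_eq' q
    have hmem : ∀ (q : P ⧸ H) (z : π.ker), (t q)⁻¹ * (z : P) * t q ∈ H := by
      intro q z
      have h1 : π (z : P) = 1 := z.2
      have h2 : π (z : P) (t q : P ⧸ H) = (t q : P ⧸ H) := by
        rw [h1]
        rfl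
      have h3 : (((z : P) * t q : P) : P ⧸ H) = (t q : P ⧸ H) := h2
      have h4 : (t q : P ⧸ H) = (((z : P) * t q : P) : P ⧸ H) := h3.symm
      rw [QuotientGroup.eq] at h4
      have h5 : (t q)⁻¹ * ((z : P) * t q) ∈ H := h4
      rwa [← mul_assoc] at h5
    let μ : P ⧸ H → (π.ker →* ℂˣ) := fun q =>
      { toFun := fun z => lam ⟨(t q)⁻¹ * (z : P) * t q, hmem q z⟩
        map_one' := by
          have : (⟨(t q)⁻¹ * ((1 : π.ker) : P) * t q, hmem q 1⟩ : H) = 1 := by
            apply Subtype.ext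
            simp
          rw [this, map_one]
        map_mul' := fun a b => by
          rw [← map_mul]
          congr 1
          apply Subtype.ext
          simp only [Subgroup.coe_mul, MulMemClass.coe_mul]
          group }
    refine ⟨P ⧸ H, inferInstance, π, μ, ?_⟩
    intro z
    have hθ : IsClassFunction H (fun h => ((lam h : ℂˣ) : ℂ)) := by
      intro g h
      simp only [map_mul, map_inv, Units.val_mul]
      rw [mul_comm ((lam h : ℂˣ) : ℂ)]
      simp
    rw [hψ, Cfsg.Agent.Lib.Char.Induced.indFun_eq_sum_transversal H _ hθ t ht]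
    refine Finset.sum_congr rfl fun q _ => ?_
    rw [Cfsg.Agent.Lib.Char.Induced.extendByZero_of_mem _ _ (hmem q z)]
    rfl
  · intro W _ _ _ τ U U' hUU' ⟨X₁, i₁, π₁, μ₁, h₁⟩ ⟨X₂, i₂, π₂, μ₂, h₂⟩
    let π : P →* Equiv.Perm (X₁ ⊕ X₂) := (Equiv.Perm.sumCongrHom X₁ X₂).comp (π₁.prod π₂)
    have hk₁ : π.ker ≤ π₁.ker := by
      intro z hz
      rw [MonoidHom.mem_ker] at hz ⊢
      ext x
      have h1 := congrArg (fun f : Equiv.Perm (X₁ ⊕ X₂) => f (Sum.inl x)) hz
      simpa [π] using h1
    have hk₂ : π.ker ≤ π₂.ker := by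
      intro z hz
      rw [MonoidHom.mem_ker] at hz ⊢
      ext x
      have h1 := congrArg (fun f : Equiv.Perm (X₁ ⊕ X₂) => f (Sum.inr x)) hz
      simpa [π] using h1
    let μ : X₁ ⊕ X₂ → (π.ker →* ℂˣ) := Sum.elim
      (fun x => (μ₁ x).comp (Subgroup.inclusion hk₁)) (fun x => (μ₂ x).comp (Subgroup.inclusion hk₂))
    refine ⟨X₁ ⊕ X₂, inferInstance, π, μ, ?_⟩
    intro z
    rw [character_eq_add_of_isCompl hUU', Fintype.sum_sum_type]
    exact congrArg₂ (· + ·) (h₁ ⟨z, hk₁ z.2⟩) (h₂ ⟨z, hk₂ z.2⟩)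

/-- A faithful character of degree `n` of a nilpotent group: there is an abelian subgroup of index
dividing `n!`. -/
theorem exists_abelian_index_dvd_factorial (ρ : Representation ℂ P V)
    (hf : ∀ g, ρ.character g = ρ.character 1 → g = 1) :
    ∃ Q : Subgroup P, (∀ x ∈ Q, ∀ y ∈ Q, x * y = y * x) ∧ Q.index ∣ (finrank ℂ V).factorial := by
  classical
  obtain ⟨X, iX, π, μ, hμ⟩ := exists_monomial_data ρ
  have h1 : ρ.character 1 = (Fintype.card X : ℂ) := by
    have := hμ 1
    simpa using this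
  have hcard : Fintype.card X = finrank ℂ V := by
    have h2 : ρ.character 1 = (finrank ℂ V : ℂ) := Representation.char_one ρ
    rw [h1] at h2
    exact_mod_cast h2
  refine ⟨π.ker, ?_, ?_⟩
  · intro a ha b hb
    let a' : π.ker := ⟨a, ha⟩
    let b' : π.ker := ⟨b, hb⟩
    have hc := hμ ⁅a', b'⁆
    have hone : ∀ x, ((μ x ⁅a', b'⁆ : ℂˣ) : ℂ) = 1 := by
      intro x
      rw [map_commutatorElement, commutatorElement_eq_one_iff_commute.mpr (Commute.all _ _)]
      rfl
    simp only [hone, Finset.sum_const, Finset.card_univ, nsmul_eq_mul, mul_one] at hc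
    rw [← h1] at hc
    have hc2 := hf _ hc
    have hc3 : a * b * a⁻¹ * b⁻¹ = 1 := by
      simpa [commutatorElement_def, a', b'] using hc2
    have hc4 : a * b * a⁻¹ = b := mul_inv_eq_one.mp hc3
    calc a * b = a * b * a⁻¹ * a := by group
      _ = b * a := by rw [hc4]
  · rw [Subgroup.index_ker, ← hcard, ← Fintype.card_perm, ← Nat.card_eq_fintype_card]
    exact Subgroup.card_subgroup_dvd_card _

end Nilp

section Index

variable {G : Type u} [Group G] [Finite G]

/-- Splitting the index of a normal subgroup. -/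
theorem index_eq_relIndex_mul {A : Subgroup G} (hA : A.Normal) (K : Subgroup G) :
    A.relIndex K * (K ⊔ A).index = A.index := by
  have h1 := Subgroup.relIndex_mul_index (H := A) (K := K ⊔ A) le_sup_right
  rwa [Subgroup.relIndex_sup_right] at h1

/-- For one prime: the `p`-part of the index of an abelian-index-bounded normal subgroup. -/
theorem exists_ppart_bound {V : Type v} [AddCommGroup V] [Module ℂ V] [FiniteDimensional ℂ V]
    (ρ : Representation ℂ G V) (hf : ∀ g, ρ.character g = ρ.character 1 → g = 1)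
    {A : Subgroup G} (hAn : A.Normal) {b : ℕ}
    (hAb : ∀ H : Subgroup G, (∀ x ∈ H, ∀ y ∈ H, x * y = y * x) → (A.subgroupOf H).index ≤ b)
    (p : ℕ) (hp : p.Prime) :
    ∃ a : ℕ, (∃ e, a = p ^ e) ∧ a ∣ (finrank ℂ V).factorial ∧
      p ^ (A.index.factorization p) ≤ a * b := by
  classical
  haveI : Fact p.Prime := ⟨hp⟩
  obtain ⟨S⟩ : Nonempty (Sylow p G) := inferInstance
  letI : Fintype (S : Subgroup G) := Fintype.ofFinite _
  haveI : Group.IsNilpotent (S : Subgroup G) := IsPGroup.isNilpotent S.isPGroup'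
  let σ : Representation ℂ (S : Subgroup G) V := ρ.comp (S : Subgroup G).subtype
  obtain ⟨Q, hQc, hQd⟩ := exists_abelian_index_dvd_factorial σ (fun g hg => by
      apply Subtype.ext
      apply hf
      have h1 : σ.character g = ρ.character (g : G) := rfl
      have h2 : σ.character 1 = ρ.character 1 := by
        change ρ.character (((1 : (S : Subgroup G)) : G)) = _
        rfl
      rw [h1, h2] at hg
      exact hg)
  let Q' : Subgroup G := Q.map (S : Subgroup G).subtype
  have hQ'S : Q' ≤ (S : Subgroup G) := by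
    rintro _ ⟨x, _, rfl⟩
    exact x.2
  have hQ'rel : Q'.relIndex (S : Subgroup G) = Q.index := by
    change (Q.map (S : Subgroup G).subtype).relIndex _ = _
    rw [Subgroup.relIndex, Subgroup.subgroupOf, Subgroup.comap_map_eq_self_of_injective
      (S : Subgroup G).subtype_injective]
  have hQ'c : ∀ x ∈ Q', ∀ y ∈ Q', x * y = y * x := by
    rintro _ ⟨x, hx, rfl⟩ _ ⟨y, hy, rfl⟩
    have := hQc x hx y hy
    simpa using congrArg Subtype.val this
  refine ⟨Q.index, ?_, hQd, ?_⟩
  · -- a divisor of the order of a `p`-group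
    obtain ⟨k, hk⟩ := IsPGroup.iff_card.mp S.isPGroup'
    have h1 : Q.index ∣ p ^ k := by
      rw [← hk]
      exact Subgroup.index_dvd_card Q
    obtain ⟨e, _, he⟩ := (Nat.dvd_prime_pow hp).mp h1
    exact ⟨e, he⟩
  · -- the `p`-part of `|G : A|`
    have h1 := index_eq_relIndex_mul hAn (S : Subgroup G)
    have h2 : ¬ p ∣ ((S : Subgroup G) ⊔ A).index := fun h =>
      S.not_dvd_index (h.trans (Subgroup.index_dvd_of_le le_sup_left))
    have h3 : p ^ (A.index.factorization p) ∣ A.relIndex (S : Subgroup G) := by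
      have h40 : p ^ (A.index.factorization p) ∣ A.index := Nat.ordProj_dvd _ _
      have h4 : p ^ (A.index.factorization p) ∣ A.relIndex (S : Subgroup G) * ((S : Subgroup G) ⊔ A).index := by
        rw [h1]
        exact h40
      exact (Nat.Coprime.dvd_of_dvd_mul_right (Nat.Coprime.pow_left _
        ((Nat.Prime.coprime_iff_not_dvd hp).mpr h2)) h4)
    have h5 : A.relIndex (S : Subgroup G) ∣ (A ⊓ Q').relIndex (S : Subgroup G) :=
      Subgroup.relIndex_dvd_of_le_left _ inf_le_left
    have h6 : (A ⊓ Q').relIndex Q' * Q'.relIndex (S : Subgroup G) =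
        (A ⊓ Q').relIndex (S : Subgroup G) :=
      Subgroup.relIndex_mul_relIndex _ _ _ inf_le_right hQ'S
    rw [Subgroup.inf_relIndex_right, hQ'rel] at h6
    have hpos : 0 < (A ⊓ Q').relIndex (S : Subgroup G) := Nat.pos_of_ne_zero (by
      rw [Subgroup.relIndex]
      exact Subgroup.index_ne_zero_of_finite)
    have h7 : p ^ (A.index.factorization p) ≤ (A ⊓ Q').relIndex (S : Subgroup G) :=
      Nat.le_of_dvd hpos (h3.trans h5)
    rw [← h6] at h7
    have h8 : A.relIndex Q' ≤ b := hAb Q' hQ'c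
    calc _ ≤ A.relIndex Q' * Q.index := h7
      _ ≤ b * Q.index := Nat.mul_le_mul_right _ h8
      _ = Q.index * b := mul_comm _ _

/-- The explicit Jordan bound. -/
theorem exists_normal_abelian_index_bound {n : ℕ} (ρ : Representation ℂ G (Fin n → ℂ))
    (hf : ∀ g, ρ g = 1 → g = 1) (hf' : ∀ g, ρ.character g = ρ.character 1 → g = 1) :
    ∃ A : Subgroup G, A.Normal ∧ (∀ x ∈ A, ∀ y ∈ A, x * y = y * x) ∧
      A.index ≤ n.factorial * 12 ^ (n * (Nat.primeCounting (n + 1) + 1)) := by
  classical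
  obtain ⟨A, hAn, hAc, hAb⟩ := exists_normal_abelian_index ρ hf
  refine ⟨A, hAn, hAc, ?_⟩
  have hfr : finrank ℂ (Fin n → ℂ) = n := by simp
  obtain ⟨H, hHc, hHπ, hHind⟩ := exists_abelian_hall n _ G (Fin n → ℂ) ρ rfl hf (by simp)
  have hkey := exists_ppart_bound ρ hf' hAn hAb
  rw [hfr] at hkey
  choose! a ha1 ha2 ha3 using hkey
  set m := A.index with hm
  have hm0 : m ≠ 0 := Subgroup.index_ne_zero_of_finite
  have hsplit := index_eq_relIndex_mul hAn H
  set u := A.relIndex H with hu
  set v := (H ⊔ A).index with hv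
  have hule : u ≤ 12 ^ n := hAb H hHc
  have hv0 : v ≠ 0 := Subgroup.index_ne_zero_of_finite
  have hvm : v ∣ m := Dvd.intro_left _ hsplit
  have hvp : ∀ q : ℕ, q.Prime → q ∣ v → q ≤ n + 1 := fun q hq hd =>
    hHind q hq (hd.trans (Subgroup.index_dvd_of_le le_sup_left))
  let S : Finset ℕ := Nat.primesBelow (n + 2)
  have hS : ∀ p ∈ S, p.Prime := fun p hp => (Nat.mem_primesBelow.mp hp).2
  have hScard : S.card = Nat.primeCounting (n + 1) := Nat.primesBelow_card_eq_primeCounting' (n + 2)
  have hvprod : ∏ p ∈ S, p ^ (v.factorization p) = v := by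
    conv_rhs => rw [← Nat.prod_factorization_pow_eq_self hv0]
    refine (Finsupp.prod_of_support_subset _ ?_ _ ?_).symm
    · intro p hp
      have hp' : p ∈ v.primeFactors := by simpa using hp
      have hq := Nat.prime_of_mem_primeFactors hp'
      have hd := Nat.dvd_of_mem_primeFactors hp'
      refine Nat.mem_primesBelow.mpr ⟨?_, hq⟩
      have := hvp p hq hd
      omega
    · intro p _
      simp
  have hle1 : ∀ p ∈ S, p ^ (v.factorization p) ≤ a p * 12 ^ n := by
    intro p hp
    have hpp := hS p hp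
    refine le_trans ?_ (ha3 p hpp)
    refine Nat.pow_le_pow_right hpp.pos ?_
    exact (Nat.factorization_le_iff_dvd hv0 hm0).mpr hvm p
  have hle2 : v ≤ ∏ p ∈ S, (a p * 12 ^ n) := by
    rw [← hvprod]
    exact Finset.prod_le_prod' hle1
  have hdvd : ∏ p ∈ S, a p ∣ n.factorial := by
    refine Finset.prod_dvd_of_isRelPrime ?_ (fun p hp => ha2 p (hS p hp))
    intro p hp q hq hpq
    obtain ⟨e, he⟩ := ha1 p (hS p hp)
    obtain ⟨f, hf⟩ := ha1 q (hS q hq)
    change IsRelPrime (a p) (a q)
    rw [he, hf, ← Nat.coprime_iff_isRelPrime]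
    exact Nat.Coprime.pow _ _ ((Nat.coprime_primes (hS p hp) (hS q hq)).mpr hpq)
  have hle3 : ∏ p ∈ S, a p ≤ n.factorial := Nat.le_of_dvd n.factorial_pos hdvd
  rw [Finset.prod_mul_distrib, Finset.prod_const, hScard] at hle2
  calc m = u * v := hsplit.symm
    _ ≤ 12 ^ n * ((∏ p ∈ S, a p) * (12 ^ n) ^ Nat.primeCounting (n + 1)) :=
        Nat.mul_le_mul hule hle2
    _ ≤ 12 ^ n * (n.factorial * (12 ^ n) ^ Nat.primeCounting (n + 1)) :=
        Nat.mul_le_mul_left _ (Nat.mul_le_mul_right _ hle3)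
    _ = n.factorial * 12 ^ (n * (Nat.primeCounting (n + 1) + 1)) := by
        rw [mul_add, pow_add, pow_mul, mul_one]
        ring

end Index

end Cfsg.Agent.Lib.LinGroup
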